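-- Team project OPAR (S5989), sub-project [PDER+] (helper57): small dimension-counting tools
-- shared by the packages [UA] and [UB] (helper87).
import Mathlib

set_option autoImplicit false

namespace Cfsg.Agent.Lib.Helper87.OPar

open Module

universe u v w

/-- Rank–nullity for the restriction of `f` to a submodule `P`. -/
theorem finrank_map_add_inf_ker {F : Type u} [Field F] {X : Type v} {Y : Type w}
    [AddCommGroup X] [Module F X] [AddCommGroup Y] [Module F Y] [FiniteDimensional F X]
    (f : X →ₗ[F] Y) (P : Submodule F X) :
    finrank F (P.map f) + finrank F (P ⊓ LinearMap.ker f : Submodule F X) = finrank F P := by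
  have h := LinearMap.finrank_range_add_finrank_ker (f.domRestrict P)
  rw [LinearMap.range_domRestrict, LinearMap.ker_domRestrict] at h
  rw [← h, ← Submodule.finrank_map_subtype_eq P ((LinearMap.ker f).comap P.subtype),
    Submodule.map_comap_subtype]

/-- The orthogonal of a subspace for a form with trivial kernel has complementary dimension. -/
theorem finrank_add_orth {F : Type u} [Field F] {X : Type v} [AddCommGroup X] [Module F X]
    [FiniteDimensional F X] (b : LinearMap.BilinForm F X) (hb : LinearMap.ker b = ⊥)
    (P : Submodule F X) :
    finrank F P + finrank F (b.orthogonal P) = finrank F X := by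
  have h := LinearMap.BilinForm.finrank_add_finrank_orthogonal' (B := b) P
  rw [hb, inf_bot_eq, finrank_bot, add_zero] at h
  exact h

end Cfsg.Agent.Lib.Helper87.OPar
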