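-- Team project OPAR (S5989, helper70), package [EXE0] (helper87):
-- plus type, `c ∣ 2d` and matching type: a fixed-point-free isometry of order `r`.
import Mathlib
import Cfsg.Agent.Lib.Helper70.OPar.Defs
import Cfsg.Agent.Lib.Helper12.OHyp.EBlkOdd

set_option autoImplicit false
open scoped MatrixGroups
open Matrix

namespace Cfsg.Agent.Lib.Helper87.OPar

open Cfsg.Agent.Lib.Helper23.OHyp Cfsg.Agent.Lib.Helper70.OPar

universe u

/-- Block sum of `t` copies of a matrix `M0` with `M0 ^ r = 1` and `det (M0 - 1) ≠ 0`. -/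
theorem exists_blockSum {F : Type u} [Field F] (i t r : ℕ) (M0 : Matrix (Fin i) (Fin i) F)
    (h1 : M0 ^ r = 1) (h2 : (M0 - 1).det ≠ 0) :
    ∃ A : Matrix (Fin (i * t)) (Fin (i * t)) F, A ^ r = 1 ∧ (A - 1).det ≠ 0 := by
  classical
  let B : Matrix (Fin i × Fin t) (Fin i × Fin t) F := Matrix.blockDiagonal (fun _ : Fin t => M0)
  have hB1 : B ^ r = 1 := by
    show Matrix.blockDiagonal (fun _ : Fin t => M0) ^ r = 1
    rw [← Matrix.blockDiagonal_pow]
    have : (fun _ : Fin t => M0) ^ r = fun _ => 1 := by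
      funext k
      simp [Pi.pow_apply, h1]
    rw [this]
    exact Matrix.blockDiagonal_one
  have hB2 : (B - 1).det ≠ 0 := by
    have : B - 1 = Matrix.blockDiagonal (fun _ : Fin t => M0 - 1) := by
      show Matrix.blockDiagonal (fun _ : Fin t => M0) - 1 = _
      rw [← Matrix.blockDiagonal_one (o := Fin t) (m := Fin i) (α := F),
        ← Matrix.blockDiagonal_sub]
      rfl
    rw [this, Matrix.det_blockDiagonal]
    exact Finset.prod_ne_zero_iff.2 (fun _ _ => h2)
  let e : Fin i × Fin t ≃ Fin (i * t) := finProdFinEquiv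
  refine ⟨Matrix.reindexAlgEquiv F F e B, ?_, ?_⟩
  · rw [← map_pow, hB1, map_one]
  · have : Matrix.reindexAlgEquiv F F e B - 1 = Matrix.reindexAlgEquiv F F e (B - 1) := by
      rw [map_sub, map_one]
    rw [this, Matrix.det_reindexAlgEquiv]
    exact hB2

/-- [EXE0] -/
theorem pkgExe0 : PkgExe0.{u} := by
  intro F _ _ h2 d r hd hr hr2 hrq hc hpar
  classical
  have hid : ordI (Fintype.card F) r ∣ d := by
    have hcd : cc (Fintype.card F) r ∣ 2 * d := Nat.dvd_of_mod_eq_zero hc
    unfold cc at hcd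
    by_cases hev : Even (ordI (Fintype.card F) r)
    · rw [if_pos hev] at hcd
      rcases hpar with ho | he
      · exact absurd hev (Nat.not_even_iff_odd.2 ho)
      · obtain ⟨s, hs⟩ := he
        refine ⟨s, ?_⟩
        have h3 := Nat.div_mul_cancel hcd
        rw [hs] at h3
        have h4 : 2 * d = 2 * (ordI (Fintype.card F) r * s) := by
          rw [← h3]
          ring
        omega
    · rw [if_neg hev] at hcd
      exact (Nat.mul_dvd_mul_iff_left (by norm_num)).1 hcd
  obtain ⟨t, rfl⟩ := hid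
  obtain ⟨M0, hM0, hdet0⟩ := Cfsg.Agent.Lib.Helper12.OHyp.exists_block_GL (F := F) r hr hrq
  obtain ⟨A, hA1, hA2⟩ := exists_blockSum (ordI (Fintype.card F) r) t r
    (M0 : Matrix (Fin (ordI (Fintype.card F) r)) (Fin (ordI (Fintype.card F) r)) F)
    (by rw [← Units.val_pow_eq_pow_val, hM0, Units.val_one]) hdet0
  let M : GL (Fin (ordI (Fintype.card F) r * t)) F := Units.ofPowEqOne A r hA1 hr.ne_zero
  have hMval : (M : Matrix (Fin (ordI (Fintype.card F) r * t))
      (Fin (ordI (Fintype.card F) r * t)) F) = A := rfl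
  have hMr : M ^ r = 1 := Units.pow_ofPowEqOne hA1 hr.ne_zero
  have hxdet := Cfsg.Agent.Lib.Helper12.OHyp.hypGL_sub_one_det M (by rw [hMval]; exact hA2)
  have hxr := Cfsg.Agent.Lib.Helper12.OHyp.hypGL_pow M r hMr
  refine ⟨Cfsg.Agent.Lib.Helper12.OHyp.hypGL M, Cfsg.Agent.Lib.Helper12.OHyp.hypGL_mem M, ?_, ?_⟩
  · haveI : Fact r.Prime := ⟨hr⟩
    apply orderOf_eq_prime hxr
    intro hx1
    rw [hx1, Units.val_one, sub_self] at hxdet
    haveI : Nonempty (Fin (ordI (Fintype.card F) r * t) ⊕ Fin (ordI (Fintype.card F) r * t)) :=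
      ⟨Sum.inl ⟨0, by omega⟩⟩
    rw [Matrix.det_zero] at hxdet
    exact not_isUnit_zero hxdet
  · have hker : fixSp ((Cfsg.Agent.Lib.Helper12.OHyp.hypGL M :
        GL (Fin (ordI (Fintype.card F) r * t) ⊕ Fin (ordI (Fintype.card F) r * t)) F) :
        Matrix (Fin (ordI (Fintype.card F) r * t) ⊕ Fin (ordI (Fintype.card F) r * t))
          (Fin (ordI (Fintype.card F) r * t) ⊕ Fin (ordI (Fintype.card F) r * t)) F) = ⊥ := by
      unfold fixSp
      have h1 : ∀ N : Matrix (Fin (ordI (Fintype.card F) r * t) ⊕ Fin (ordI (Fintype.card F) r * t))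
          (Fin (ordI (Fintype.card F) r * t) ⊕ Fin (ordI (Fintype.card F) r * t)) F,
          Matrix.toLin' N - 1 = Matrix.toLin' (N - 1) := by
        intro N
        rw [map_sub, Matrix.toLin'_one]
        rfl
      rw [h1, LinearMap.ker_eq_bot]
      have hu := (Matrix.isUnit_iff_isUnit_det _).2 hxdet
      exact Matrix.mulVec_injective_of_isUnit hu
    rw [hker, finrank_bot]

end Cfsg.Agent.Lib.Helper87.OPar
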