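-- Team project OPAR (S5989), sub-project [PDER+] (helper57), package [UA] (helper87):
-- `N ^ 2 = 0`: invariant nondegenerate subspaces have dimension `4 a + w₁`, `w₁ ≤ e`.
import Mathlib
import Cfsg.Agent.Lib.Helper57.OPar.Defs
import Cfsg.Agent.Lib.Helper36.AltEven
import Cfsg.Agent.Lib.Helper87.OPar.UTools

set_option autoImplicit false

namespace Cfsg.Agent.Lib.Helper87.OPar

open Module

universe u

/-- [UA] (the hypothesis `PkgAlt` is not needed: `Helper36.alt_finrank_aux` is used instead). -/
theorem pkgUA (_hAlt : Cfsg.Agent.Lib.Helper57.OPar.PkgAlt.{u}) :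
    Cfsg.Agent.Lib.Helper57.OPar.PkgUA.{u} := by
  intro F _ V _ _ _ h2 B N hsym hiso hN2 e φ hφ W hW hnd
  classical
  have s1 : ∀ u v, B (N u) (N v) = 0 := by
    intro u v
    have h := hiso u (N v)
    rw [hN2, add_zero, map_add, LinearMap.add_apply] at h
    linear_combination h
  have s2 : ∀ u v, B (N u) v = -B u (N v) := by
    intro u v
    have h := hiso u v
    simp only [map_add, LinearMap.add_apply, s1] at h
    linear_combination h
  let NW : W →ₗ[F] W := N.restrict hW
  let BW : LinearMap.BilinForm F W := LinearMap.BilinForm.restrict B W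
  have hNW : ∀ w : W, (NW w : V) = N w := fun w => rfl
  have hkerB : LinearMap.ker BW = ⊥ := by
    rw [LinearMap.ker_eq_bot']
    intro w hw
    by_contra hne
    obtain ⟨v, hv, hv'⟩ := hnd w w.2 (fun h => hne (Subtype.ext h))
    apply hv'
    have h := congrArg (fun f : W →ₗ[F] F => f ⟨v, hv⟩) hw
    exact h
  set K : Submodule F W := LinearMap.ker NW with hK
  set I : Submodule F W := LinearMap.range NW with hI
  have hKmem : ∀ n : W, n ∈ K → N (n : V) = 0 := by
    intro n hn
    exact congrArg Subtype.val (LinearMap.mem_ker.1 hn)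
  have hIK : I ≤ K := by
    rintro _ ⟨w, rfl⟩
    rw [hK, LinearMap.mem_ker]
    apply Subtype.ext
    rw [hNW, hNW, hN2]
    rfl
  have hrn : finrank F I + finrank F K = finrank F W :=
    LinearMap.finrank_range_add_finrank_ker NW
  have hβalt : LinearMap.IsAlt (BW ∘ₗ NW) := by
    intro u
    show B (N (u : V)) (u : V) = 0
    have h := s2 (u : V) (u : V)
    rw [hsym (u : V) (N (u : V))] at h
    have h3 : (2 : F) * B (N (u : V)) (u : V) = 0 := by linear_combination h
    exact (mul_eq_zero.1 h3).resolve_left h2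
  have hkerβ : LinearMap.ker (BW ∘ₗ NW) = K := by
    rw [LinearMap.ker_comp, hkerB, Submodule.comap_bot]
  obtain ⟨k, hk⟩ := Cfsg.Agent.Lib.Helper36.alt_finrank_aux F (finrank F W) W (BW ∘ₗ NW)
    hβalt rfl
  rw [hkerβ] at hk
  have horth := finrank_add_orth BW hkerB K
  have hIorth : I ≤ BW.orthogonal K := by
    rintro _ ⟨w, rfl⟩ n hn
    show B (n : V) (N (w : V)) = 0
    have h := s2 (n : V) (w : V)
    rw [hKmem n hn, map_zero, LinearMap.zero_apply] at h
    exact neg_eq_zero.1 h.symm
  have hIeq : I = BW.orthogonal K := Submodule.eq_of_le_of_finrank_eq hIorth (by omega)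
  let ψ : W →ₗ[F] (Fin e → F) := φ ∘ₗ W.subtype
  have hK' : K ⊓ LinearMap.ker ψ ≤ I := by
    rintro v ⟨hvK, hvψ⟩
    rw [hIeq]
    obtain ⟨u, hu⟩ := hφ (v : V) (hKmem v hvK) (LinearMap.mem_ker.1 hvψ)
    intro n hn
    show B (n : V) (v : V) = 0
    rw [← hu]
    have h := s2 (n : V) u
    rw [hKmem n hn, map_zero, LinearMap.zero_apply] at h
    exact neg_eq_zero.1 h.symm
  have hA := finrank_map_add_inf_ker ψ K
  have hmap : finrank F (K.map ψ) ≤ e := by
    have h := Submodule.finrank_le (K.map ψ)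
    simpa using h
  have hK'' : finrank F (K ⊓ LinearMap.ker ψ : Submodule F W) ≤ finrank F I :=
    Submodule.finrank_mono hK'
  have hIK' : finrank F I ≤ finrank F K := Submodule.finrank_mono hIK
  refine ⟨k, finrank F K - finrank F I, ?_, ?_⟩ <;> omega

end Cfsg.Agent.Lib.Helper87.OPar
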