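-- Team project OPAR (S5989), sub-project [PDER+] (helper57), package [UB] (helper87):
-- `N ^ 3 = 0`, `ker N` totally isotropic, `rank N ^ 2 ≤ 2`: invariant nondegenerate subspaces
-- have dimension `4 a + 3 a₃`, `a₃ ≤ 2`.
import Mathlib
import Cfsg.Agent.Lib.Helper57.OPar.Defs
import Cfsg.Agent.Lib.Helper36.AltEven
import Cfsg.Agent.Lib.Helper87.OPar.UTools

set_option autoImplicit false

namespace Cfsg.Agent.Lib.Helper87.OPar

open Module

universe u

/-- [UB] (the hypothesis `PkgAlt` is not needed: `Helper36.alt_finrank_aux` is used instead). -/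
theorem pkgUB (_hAlt : Cfsg.Agent.Lib.Helper57.OPar.PkgAlt.{u}) :
    Cfsg.Agent.Lib.Helper57.OPar.PkgUB.{u} := by
  intro F _ V _ _ _ h2 B N hsym hiso hN3 hKK hrk W hW hnd
  classical
  have adj : ∀ u v, B (N u) v = -B u (N v) + B u (N (N v)) := by
    intro u v
    have h := hiso u (v - N v + N (N v))
    have e1 : v - N v + N (N v) + N (v - N v + N (N v)) = v := by
      rw [map_add, map_sub, hN3]
      abel
    rw [e1] at h
    simp only [map_add, map_sub, LinearMap.add_apply] at h
    linear_combination h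
  have adj2 : ∀ u v, B (N (N u)) v = B u (N (N v)) := by
    intro u v
    have h1 := adj (N u) v
    have h2' := adj u (N v)
    have h3 := adj u (N (N v))
    have z1 : N (N (N v)) = 0 := hN3 v
    have z2 : N (N (N (N v))) = 0 := hN3 (N v)
    rw [z1, map_zero] at h2'
    rw [z2, z1, map_zero] at h3
    linear_combination h1 - h2' + h3
  let NW : W →ₗ[F] W := N.restrict hW
  let BW : LinearMap.BilinForm F W := LinearMap.BilinForm.restrict B W
  have hNW : ∀ w : W, (NW w : V) = N w := fun w => rfl
  have hkerB : LinearMap.ker BW = ⊥ := by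
    rw [LinearMap.ker_eq_bot']
    intro w hw
    by_contra hne
    obtain ⟨v, hv, hv'⟩ := hnd w w.2 (fun h => hne (Subtype.ext h))
    apply hv'
    have h := congrArg (fun f : W →ₗ[F] F => f ⟨v, hv⟩) hw
    exact h
  set K : Submodule F W := LinearMap.ker NW with hK
  set I : Submodule F W := LinearMap.range NW with hI
  set S : Submodule F W := LinearMap.ker (NW ∘ₗ NW) with hS
  set I2 : Submodule F W := LinearMap.range (NW ∘ₗ NW) with hI2
  have hKmem : ∀ n : W, n ∈ K → N (n : V) = 0 := by
    intro n hn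
    exact congrArg Subtype.val (LinearMap.mem_ker.1 hn)
  have hSmem : ∀ n : W, n ∈ S → N (N (n : V)) = 0 := by
    intro n hn
    exact congrArg Subtype.val (LinearMap.mem_ker.1 hn)
  have hmemK : ∀ n : W, N (n : V) = 0 → n ∈ K := by
    intro n hn
    rw [hK, LinearMap.mem_ker]
    exact Subtype.ext hn
  have hmemS : ∀ n : W, N (N (n : V)) = 0 → n ∈ S := by
    intro n hn
    rw [hS, LinearMap.mem_ker]
    exact Subtype.ext hn
  have hrn1 : finrank F I + finrank F K = finrank F W :=
    LinearMap.finrank_range_add_finrank_ker NW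
  have hrn2 : finrank F I2 + finrank F S = finrank F W :=
    LinearMap.finrank_range_add_finrank_ker (NW ∘ₗ NW)
  -- the orthogonal of `K`
  have horthK := finrank_add_orth BW hkerB K
  have hIorth : I ≤ BW.orthogonal K := by
    rintro _ ⟨w, rfl⟩ n hn
    show B (n : V) (N (w : V)) = 0
    rw [hsym]
    have h := adj (w : V) (n : V)
    rw [hKmem n hn, map_zero, map_zero] at h
    rw [h]
    simp
  have hIeq : I = BW.orthogonal K := Submodule.eq_of_le_of_finrank_eq hIorth (by omega)
  have hKI : K ≤ I := by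
    rw [hIeq]
    intro n hn n' hn'
    show B (n' : V) (n : V) = 0
    exact hKK _ _ (hKmem n' hn') (hKmem n hn)
  have hKS : K ≤ S := by
    intro n hn
    apply hmemS
    rw [hKmem n hn, map_zero]
  -- `finrank S = 2 κ`
  have hSmap : S.map NW = K := by
    apply le_antisymm
    · rintro _ ⟨s, hs, rfl⟩
      apply hmemK
      exact hSmem s hs
    · intro n hn
      obtain ⟨w, rfl⟩ := hKI hn
      refine ⟨w, ?_, rfl⟩
      apply hmemS
      exact hKmem _ hn
  have hSfin : finrank F S = 2 * finrank F K := by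
    have h := finrank_map_add_inf_ker NW S
    rw [hSmap, inf_eq_right.2 hKS] at h
    omega
  -- `a₃ ≤ 2`
  have ha3 : finrank F I2 ≤ 2 := by
    have h1 : I2.map W.subtype ≤ LinearMap.range (N ∘ₗ N) := by
      rintro _ ⟨_, ⟨w, rfl⟩, rfl⟩
      exact ⟨(w : V), rfl⟩
    have h2' := Submodule.finrank_mono h1
    rw [Submodule.finrank_map_subtype_eq] at h2'
    omega
  -- the orthogonal of `S`
  have horthS := finrank_add_orth BW hkerB S
  have hI2orth : I2 ≤ BW.orthogonal S := by
    rintro _ ⟨w, rfl⟩ n hn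
    show B (n : V) (N (N (w : V))) = 0
    rw [← adj2, hSmem n hn]
    simp
  have hI2eq : I2 = BW.orthogonal S := Submodule.eq_of_le_of_finrank_eq hI2orth (by omega)
  -- the alternating form on `S`
  let βS : LinearMap.BilinForm F S := LinearMap.BilinForm.restrict (BW ∘ₗ NW) S
  have hβS : ∀ u v : S, βS u v = B (N (u : V)) (v : V) := fun u v => rfl
  have hβalt : LinearMap.IsAlt βS := by
    intro u
    rw [hβS]
    have h := adj ((u : W) : V) ((u : W) : V)
    rw [hSmem (u : W) u.2, map_zero, add_zero, hsym ((u : W) : V) (N ((u : W) : V))] at h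
    have h3 : (2 : F) * B (N ((u : W) : V)) ((u : W) : V) = 0 := by linear_combination h
    exact (mul_eq_zero.1 h3).resolve_left h2
  obtain ⟨k, hk⟩ := Cfsg.Agent.Lib.Helper36.alt_finrank_aux F (finrank F S) S βS hβalt rfl
  set R : Submodule F W := S ⊓ I2.comap NW with hR
  have hkerβ : (LinearMap.ker βS).map S.subtype = R := by
    apply le_antisymm
    · rintro _ ⟨u, hu, rfl⟩
      refine ⟨u.2, ?_⟩
      show NW (u : W) ∈ I2
      rw [hI2eq]
      intro n hn
      show B (n : V) (N ((u : W) : V)) = 0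
      rw [hsym]
      have h := congrArg (fun f : S →ₗ[F] F => f ⟨n, hn⟩) (LinearMap.mem_ker.1 hu)
      exact h
    · rintro w ⟨hwS, hwI⟩
      refine ⟨⟨w, hwS⟩, ?_, rfl⟩
      show βS ⟨w, hwS⟩ = 0
      apply LinearMap.ext
      intro v
      show B (N (w : V)) ((v : W) : V) = 0
      rw [hsym]
      have hwI' : NW w ∈ BW.orthogonal S := by
        rw [← hI2eq]
        exact hwI
      exact hwI' (v : W) v.2
  have hkerfin : finrank F (LinearMap.ker βS) = finrank F R := by
    rw [← hkerβ, Submodule.finrank_map_subtype_eq]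
  have hRmap : R.map NW = I2 := by
    apply le_antisymm
    · rintro _ ⟨r, hr, rfl⟩
      exact hr.2
    · rintro _ ⟨w, rfl⟩
      refine ⟨NW w, ⟨?_, ?_⟩, rfl⟩
      · apply hmemS
        exact hN3 (w : V)
      · exact ⟨w, rfl⟩
  have hKR : K ≤ R := by
    intro n hn
    refine ⟨hKS hn, ?_⟩
    show NW n ∈ I2
    rw [LinearMap.mem_ker.1 hn]
    exact Submodule.zero_mem _
  have hRfin : finrank F R = finrank F I2 + finrank F K := by
    have h := finrank_map_add_inf_ker NW R
    rw [hRmap, inf_eq_right.2 hKR] at h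
    omega
  refine ⟨k, finrank F I2, ?_, ha3⟩
  omega

end Cfsg.Agent.Lib.Helper87.OPar
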