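-- Team project OPAR (S5989, helper70), package [OM2A] (helper87):
-- `q ≡ 3 (mod 4)`, `d` odd: no isometry of `quadFormPlus d F` has square `-1`.
import Mathlib
import Cfsg.Agent.Lib.Helper70.OPar.Defs
import Cfsg.Agent.Lib.Helper36.AltEven

set_option autoImplicit false
open scoped MatrixGroups
open Matrix

namespace Cfsg.Agent.Lib.Helper87.OPar

open Cfsg.Agent.Lib.Helper23.OHyp Cfsg.Agent.Lib.Helper70.OPar

universe u

/-- [OM2A] -/
theorem pkgOm2A : PkgOm2A.{u} := by
  intro F _ _ hq d hd x hx hxx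
  classical
  have h2 : (2 : F) ≠ 0 := by
    apply Ring.two_ne_zero
    intro h
    have := FiniteField.even_card_iff_char_two.1 h
    omega
  set a : Matrix (Fin d) (Fin d) F := x.toBlocks₁₁ with ha
  set c : Matrix (Fin d) (Fin d) F := x.toBlocks₂₁ with hc
  have hxv : ∀ u : Fin d → F, x *ᵥ (Sum.elim u 0) = Sum.elim (a *ᵥ u) (c *ᵥ u) := by
    intro u
    conv_lhs => rw [← Matrix.fromBlocks_toBlocks x]
    rw [Matrix.fromBlocks_mulVec]
    simp [ha, hc]
  have hxx' : ∀ v, x *ᵥ (x *ᵥ v) = -v := by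
    intro v
    rw [Matrix.mulVec_mulVec, hxx, Matrix.neg_mulVec, Matrix.one_mulVec]
  have hQ : ∀ u w : Fin d → F, Cfsg.quadFormPlus d F (Sum.elim u w) = u ⬝ᵥ w := fun u w => rfl
  have halt : ∀ u : Fin d → F, u ⬝ᵥ (c *ᵥ u) = 0 := by
    intro u
    have h := hx (Sum.elim u 0 + x *ᵥ Sum.elim u 0)
    rw [Matrix.mulVec_add, hxx', hxv] at h
    have e1 : Sum.elim (a *ᵥ u) (c *ᵥ u) + -Sum.elim u 0 = Sum.elim (a *ᵥ u - u) (c *ᵥ u) := by
      funext i
      rcases i with i | i <;> simp [sub_eq_add_neg]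
    have e2 : Sum.elim u 0 + Sum.elim (a *ᵥ u) (c *ᵥ u) = Sum.elim (u + a *ᵥ u) (c *ᵥ u) := by
      funext i
      rcases i with i | i <;> simp
    rw [e1, e2, hQ, hQ, sub_dotProduct, add_dotProduct] at h
    have h3 : (2 : F) * (u ⬝ᵥ (c *ᵥ u)) = 0 := by linear_combination (-1 : F) * h
    exact (mul_eq_zero.1 h3).resolve_left h2
  have hrank : Even c.rank := Cfsg.Agent.Lib.Helper36.even_rank_of_alt c halt
  let K : Submodule F (Fin d → F) := LinearMap.ker c.mulVecLin
  have hK : ∀ u ∈ K, c *ᵥ u = 0 := fun u hu => hu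
  have hKa : ∀ u ∈ K, a *ᵥ u ∈ K ∧ a *ᵥ (a *ᵥ u) = -u := by
    intro u hu
    have h1 := hxx' (Sum.elim u 0)
    rw [hxv, hK u hu, hxv] at h1
    constructor
    · show c *ᵥ (a *ᵥ u) = 0
      funext i
      have := congrFun h1 (Sum.inr i)
      simpa using this
    · funext i
      have := congrFun h1 (Sum.inl i)
      simpa using this
  let φ : K →ₗ[F] K := (a.mulVecLin).restrict (fun u hu => (hKa u hu).1)
  have hφ : φ ∘ₗ φ = (-1 : F) • LinearMap.id := by
    apply LinearMap.ext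
    intro u
    apply Subtype.ext
    have h5 := (hKa u.1 u.2).2
    show a *ᵥ (a *ᵥ (u : Fin d → F)) = ((-1 : F) • (u : Fin d → F))
    rw [h5, neg_one_smul]
  have hdet : LinearMap.det φ * LinearMap.det φ = (-1) ^ Module.finrank F K := by
    rw [← LinearMap.det_comp, hφ, LinearMap.det_smul, LinearMap.det_id, mul_one]
  have hKeven : Even (Module.finrank F K) := by
    by_contra hodd
    rw [Nat.not_even_iff_odd] at hodd
    rw [hodd.neg_one_pow] at hdet
    have hsq : IsSquare (-1 : F) := ⟨LinearMap.det φ, hdet.symm⟩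
    exact (FiniteField.isSquare_neg_one_iff.1 hsq) hq
  have hrn := LinearMap.finrank_range_add_finrank_ker c.mulVecLin
  have hd' : c.rank + Module.finrank F K = d := by
    have h4 : c.rank = Module.finrank F (LinearMap.range c.mulVecLin) := rfl
    rw [h4]
    simpa using hrn
  obtain ⟨k1, hk1⟩ := hrank
  obtain ⟨k2, hk2⟩ := hKeven
  obtain ⟨k3, hk3⟩ := hd
  omega

end Cfsg.Agent.Lib.Helper87.OPar
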